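import Mathlib

/-!
A group is bounded by the centraliser orders of the three involutions of a four subgroup and by its
Sylow 2-subgroup order.
-/

set_option autoImplicit false

namespace CfsgLib.InvBound

universe u

variable {G : Type u} [Group G] [Finite G]

theorem pow_half {R : Subgroup G} {e : ℕ} (he : Nat.card R + 1 = 2 * e) {g : G} (hg : g ∈ R) :
    (g * g) ^ e = g := by
  have h1 : g ^ Nat.card R = 1 := congrArg Subtype.val (pow_card_eq_one' (x := (⟨g, hg⟩ : R)))
  rw [← pow_two, ← pow_mul, ← he, pow_succ, h1, one_mul]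

/-- Decomposition with respect to one involution in an odd subgroup. -/
theorem exists_split {R : Subgroup G} (hR : Odd (Nat.card R)) (σ : MulAut G) (hσ : ∀ g, σ (σ g) = g)
    (hσR : ∀ g ∈ R, σ g ∈ R) {t : G} (ht : t ∈ R) :
    ∃ b ∈ R, ∃ s ∈ R, σ b = b ∧ σ s = s⁻¹ ∧ t = b * s := by
  obtain ⟨k, hk⟩ := hR
  have he : Nat.card R + 1 = 2 * (k + 1) := by omega
  have hq : (σ t)⁻¹ * t ∈ R := R.mul_mem (R.inv_mem (hσR t ht)) ht
  set s := ((σ t)⁻¹ * t) ^ (k + 1) with hs
  have hsR : s ∈ R := R.pow_mem hq _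
  have hss : s * s = (σ t)⁻¹ * t := by
    rw [hs, ← (Commute.refl ((σ t)⁻¹ * t)).mul_pow, pow_half he hq]
  have hσs : σ s = s⁻¹ := by
    rw [hs, map_pow, map_mul, map_inv, hσ, ← inv_pow]
    congr 1
    group
  refine ⟨t * s⁻¹, R.mul_mem ht (R.inv_mem hsR), s, hsR, ?_, hσs, by group⟩
  rw [map_mul, map_inv, hσs, inv_inv]
  calc σ t * s = σ t * (s * s) * s⁻¹ := by group
    _ = _ := by rw [hss]; group

/-- An odd subgroup under a four group of operators is bounded by the fixed points of the three involutions. -/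
theorem card_odd_le {R : Subgroup G} (hR : Odd (Nat.card R)) (σ τ : MulAut G) (hσ : ∀ g, σ (σ g) = g)
    (hτ : ∀ g, τ (τ g) = g) (hστ : ∀ g, σ (τ g) = τ (σ g)) (hσR : ∀ g ∈ R, σ g ∈ R) (hτR : ∀ g ∈ R, τ g ∈ R) :
    Nat.card R ≤ Nat.card {g : G // g ∈ R ∧ σ g = g} *
      (Nat.card {g : G // g ∈ R ∧ τ g = g} * Nat.card {g : G // g ∈ R ∧ σ (τ g) = g}) := by
  classical
  obtain ⟨k, hk⟩ := id hR
  have he : Nat.card R + 1 = 2 * (k + 1) := by omega
  have key : ∀ t : G, t ∈ R → σ t = t⁻¹ →
      ∃ r ∈ R, ∃ m ∈ R, τ r = r ∧ σ (τ m) = m ∧ t = r * m * r := by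
    intro t ht hσt
    obtain ⟨b, hb, s, hs, hτb, hτs, rfl⟩ := exists_split hR τ hτ hτR ht
    -- uniqueness of the decomposition
    have h1 : σ b * σ s = b⁻¹ * (b * s⁻¹ * b⁻¹) := by
      rw [← map_mul, hσt]; group
    set d := b * σ b with hd
    have hdR : d ∈ R := R.mul_mem hb (hσR b hb)
    have hτd : τ d = d := by rw [hd, map_mul, hτb, ← hστ, hτb]
    have h2 : d * σ s = b * s⁻¹ * b⁻¹ := by
      rw [hd, mul_assoc, h1]; group
    set u := σ s with hu
    set v := b * s⁻¹ * b⁻¹ with hv
    have hτu : τ u = u⁻¹ := by rw [hu, ← hστ, hτs, map_inv]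
    have hτv : τ v = v⁻¹ := by
      rw [hv, map_mul, map_mul, map_inv, map_inv, hτb, hτs]; group
    have h3 : d * u⁻¹ = u⁻¹ * d⁻¹ := by
      have := congrArg τ h2
      rw [map_mul, hτd, hτu, hτv, ← h2] at this
      rw [this]; group
    have h3' : u⁻¹ * d = d⁻¹ * u⁻¹ := by
      calc u⁻¹ * d = d⁻¹ * (d * u⁻¹) * d := by group
        _ = _ := by rw [h3]; group
    have h4 : d * (u⁻¹ * u⁻¹) = u⁻¹ * u⁻¹ * d := by
      calc d * (u⁻¹ * u⁻¹) = d * u⁻¹ * u⁻¹ := by group
        _ = u⁻¹ * (d⁻¹ * u⁻¹) := by rw [h3]; group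
        _ = _ := by rw [← h3']; group
    have huR : u⁻¹ ∈ R := R.inv_mem (hσR s hs)
    have h5 : d * u⁻¹ = u⁻¹ * d := by
      have h := ((show Commute d (u⁻¹ * u⁻¹) from h4).pow_right (k + 1)).eq
      rwa [pow_half he huR] at h
    have hd1 : d = 1 := by
      have h6 : d * d = 1 := by
        have h7 := h3.symm.trans h5
        rw [mul_left_cancel_iff] at h7
        nth_rw 1 [← h7]
        exact inv_mul_cancel d
      rw [← pow_half he hdR, h6, one_pow]
    have hσb : σ b = b⁻¹ := eq_inv_of_mul_eq_one_right hd1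
    have hu' : σ s = b * s⁻¹ * b⁻¹ := by
      rw [hd1, one_mul] at h2; exact h2
    set r := b ^ (k + 1) with hr
    have hrr : r * r = b := by
      rw [hr, ← (Commute.refl b).mul_pow, pow_half he hb]
    have hσr : σ r = r⁻¹ := by rw [hr, map_pow, hσb, inv_pow]
    have hτr : τ r = r := by rw [hr, map_pow, hτb]
    refine ⟨r, R.pow_mem hb _, r * s * r⁻¹, R.mul_mem (R.mul_mem (R.pow_mem hb _) hs) (R.inv_mem (R.pow_mem hb _)),
      hτr, ?_, ?_⟩
    · simp only [map_mul, map_inv, hτr, hτs, hσr, hu']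
      rw [← hrr]
      group
    · rw [← hrr]; group
  let T := {g : G // g ∈ R ∧ σ g = g⁻¹}
  have hT : Nat.card T ≤ Nat.card {g : G // g ∈ R ∧ τ g = g} * Nat.card {g : G // g ∈ R ∧ σ (τ g) = g} := by
    rw [← Nat.card_prod]
    choose r hr m hm hτr hσm heq using key
    refine Nat.card_le_card_of_injective (fun t : T => (⟨r t.1 t.2.1 t.2.2, hr _ _ _, hτr _ _ _⟩,
      ⟨m t.1 t.2.1 t.2.2, hm _ _ _, hσm _ _ _⟩)) fun a b h => Subtype.ext ?_
    simp only [Prod.mk.injEq, Subtype.mk.injEq] at h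
    rw [heq a.1 a.2.1 a.2.2, heq b.1 b.2.1 b.2.2, h.1, h.2]
  refine le_trans ?_ (Nat.mul_le_mul_left _ hT)
  rw [← Nat.card_prod]
  choose c hc s hs hσc hσs heq using fun g : R => exists_split hR σ hσ hσR g.2
  refine Nat.card_le_card_of_injective (fun g : R => ((⟨c g, hc g, hσc g⟩, ⟨s g, hs g, hσs g⟩) :
    {g : G // g ∈ R ∧ σ g = g} × T)) fun a b h => Subtype.ext ?_
  obtain ⟨e1, e2⟩ := Prod.ext_iff.1 h
  have e1' : c a = c b := congrArg Subtype.val e1
  have e2' : s a = s b := congrArg Subtype.val e2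
  rw [heq a, heq b, e1', e2']

theorem inv_eq_self_of_involution {x : G} (hx : x * x = 1) : x⁻¹ = x := inv_eq_of_mul_eq_one_right hx

/-- With an involution of small centraliser some non-trivial element of a normal subgroup has small index. -/
theorem exists_small_index (N : Subgroup G) [hN : N.Normal] {x : G} (hx : x * x = 1) {c : ℕ}
    (hc : Nat.card (Subgroup.centralizer ({x} : Set G)) ≤ c) :
    Nat.card N ≤ 2 * c ^ 2 ∨
      ∃ z ∈ N, z ≠ 1 ∧ (Subgroup.centralizer ({z} : Set G)).relIndex N ≤ 2 * c ^ 2 := by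
  classical
  haveI := Fintype.ofFinite G
  have hxi := inv_eq_self_of_involution hx
  let σ : G → G := fun g => x * g * x
  have hσN : ∀ g ∈ N, σ g ∈ N := fun g hg => by
    have := hN.conj_mem g hg x
    rwa [hxi] at this
  let T : Finset G := Finset.univ.filter fun g => g ∈ N ∧ σ g = g⁻¹
  have hmem : ∀ n : N, (n : G)⁻¹ * σ n ∈ T := fun n => by
    simp only [T, Finset.mem_filter, Finset.mem_univ, true_and]
    refine ⟨N.mul_mem (N.inv_mem n.2) (hσN n n.2), ?_⟩
    show x * ((n : G)⁻¹ * (x * n * x)) * x = ((n : G)⁻¹ * (x * n * x))⁻¹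
    simp only [mul_inv_rev, inv_inv, hxi, mul_assoc, hx, mul_one]
  let NS : Finset G := Finset.univ.filter fun g => g ∈ N
  have hNS : NS.card = Nat.card N := by
    rw [Nat.card_eq_fintype_card, Fintype.card_subtype]
  have hCx : (Finset.univ.filter fun g => g ∈ Subgroup.centralizer ({x} : Set G)).card ≤ c := by
    rwa [← Fintype.card_subtype, ← Nat.card_eq_fintype_card]
  have hNT : Nat.card N ≤ c * T.card := by
    rw [← hNS]
    refine Finset.card_le_mul_card_image_of_maps_to (f := fun g => g⁻¹ * σ g) (fun g hg => ?_) c fun t _ => ?_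
    · exact hmem ⟨g, (Finset.mem_filter.1 hg).2⟩
    · rcases (NS.filter fun g => g⁻¹ * σ g = t).eq_empty_or_nonempty with h | ⟨a, ha⟩
      · rw [h]; simp
      refine le_trans (Finset.card_le_card_of_injOn (fun g => g * a⁻¹) (fun g hg => ?_)
        (fun g _ g' _ h => mul_right_cancel h)) hCx
      have h1 : g⁻¹ * (x * g * x) = a⁻¹ * (x * a * x) :=
        (Finset.mem_filter.1 hg).2.trans (Finset.mem_filter.1 ha).2.symm
      simp only [Finset.mem_filter, Finset.mem_univ, true_and, Finset.mem_coe,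
        Subgroup.mem_centralizer_singleton_iff]
      calc g * a⁻¹ * x = g * (a⁻¹ * (x * a * x)) * (x * a * x)⁻¹ * x := by group
        _ = g * (g⁻¹ * (x * g * x)) * (x⁻¹ * a⁻¹ * x⁻¹) * x := by rw [h1]; group
        _ = _ := by group
  by_contra hcon
  push Not at hcon
  obtain ⟨hbig, hz⟩ := hcon
  let S : Finset (G × G) := T.offDiag
  have hS : S.card = T.card * T.card - T.card := Finset.offDiag_card T
  -- fibres of `(t₁, t₂) ↦ t₁⁻¹ t₂`
  have hle : S.card ≤ ∑ z ∈ NS.erase 1, (S.filter fun p => p.1⁻¹ * p.2 = z).card := by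
    refine (Finset.card_eq_sum_card_fiberwise fun p hp => ?_).le
    simp only [S, T, Finset.mem_coe, Finset.mem_offDiag, Finset.mem_filter, Finset.mem_univ, true_and] at hp
    simp only [NS, Finset.mem_coe, Finset.mem_erase, Finset.mem_filter, Finset.mem_univ, true_and]
    exact ⟨fun h => hp.2.2 (inv_mul_eq_one.1 h), N.mul_mem (N.inv_mem hp.1.1) hp.2.1.1⟩
  have hfib : ∀ z ∈ NS.erase 1, (S.filter fun p => p.1⁻¹ * p.2 = z).card * (2 * c ^ 2 + 1) ≤ Nat.card N := by
    intro z hz'
    obtain ⟨hz1, hzN⟩ := Finset.mem_erase.1 hz'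
    replace hzN : z ∈ N := (Finset.mem_filter.1 hzN).2
    set C := Subgroup.centralizer ({z} : Set G) with hC
    have h1 : (S.filter fun p => p.1⁻¹ * p.2 = z).card ≤ (NS.filter fun g => g ∈ C).card := by
      rcases (S.filter fun p => p.1⁻¹ * p.2 = z).eq_empty_or_nonempty with h | ⟨q, hq⟩
      · rw [h]; simp
      refine Finset.card_le_card_of_injOn (fun p => p.1⁻¹ * q.1) (fun p hp => ?_) (fun p hp p' hp' h => ?_)
      · simp only [S, T, Finset.mem_coe, Finset.mem_filter, Finset.mem_offDiag, Finset.mem_univ, true_and] at hp hq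
        simp only [NS, Finset.mem_coe, Finset.mem_filter, Finset.mem_univ, true_and]
        refine ⟨N.mul_mem (N.inv_mem hp.1.1.1) hq.1.1.1, ?_⟩
        rw [hC, Subgroup.mem_centralizer_singleton_iff]
        have e : ∀ t₁ t₂ : G, σ t₁ = t₁⁻¹ → σ t₂ = t₂⁻¹ → t₁⁻¹ * t₂ = z → σ z = t₁ * z⁻¹ * t₁⁻¹ := by
          intro t₁ t₂ a b h
          have h2 : σ z = (σ t₁)⁻¹ * σ t₂ := by
            rw [← h]
            simp only [σ, mul_inv_rev, hxi]
            calc x * (t₁⁻¹ * t₂) * x = x * t₁⁻¹ * (x * x) * t₂ * x := by rw [hx]; group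
              _ = _ := by group
          rw [h2, a, b, ← h]; group
        have h3 := (e _ _ hp.1.1.2 hp.1.2.1.2 hp.2).symm.trans (e _ _ hq.1.1.2 hq.1.2.1.2 hq.2)
        have h4 := congrArg (fun g => g⁻¹) h3
        simp only [mul_inv_rev, inv_inv] at h4
        calc p.1⁻¹ * q.1 * z = p.1⁻¹ * (q.1 * (z * q.1⁻¹)) * q.1 := by group
          _ = _ := by rw [← h4]; group
      · have h' : p.1 = p'.1 := inv_injective (mul_right_cancel h)
        refine Prod.ext h' ?_
        have e1 := (Finset.mem_filter.1 hp).2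
        have e2 := (Finset.mem_filter.1 hp').2
        rw [h'] at e1
        exact mul_left_cancel (e1.trans e2.symm)
    have h2 : (NS.filter fun g => g ∈ C).card = Nat.card (C.subgroupOf N) := by
      rw [Finset.filter_filter, ← Fintype.card_subtype, ← Nat.card_eq_fintype_card]
      exact Nat.card_congr
        { toFun := fun g => ⟨⟨g.1, g.2.1⟩, g.2.2⟩
          invFun := fun g => ⟨g.1.1, g.1.2, g.2⟩
          left_inv := fun _ => rfl
          right_inv := fun _ => rfl }
    have h3 := hz z hzN hz1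
    rw [Subgroup.relIndex] at h3
    calc (S.filter fun p => p.1⁻¹ * p.2 = z).card * (2 * c ^ 2 + 1)
        ≤ Nat.card (C.subgroupOf N) * (C.subgroupOf N).index := Nat.mul_le_mul (h2 ▸ h1) h3
      _ = Nat.card N := Subgroup.card_mul_index _
  have h5 : S.card * (2 * c ^ 2 + 1) ≤ Nat.card N * Nat.card N := by
    refine (Nat.mul_le_mul_right _ hle).trans ?_
    rw [Finset.sum_mul]
    refine (Finset.sum_le_card_nsmul _ _ _ hfib).trans ?_
    rw [smul_eq_mul, ← hNS]
    exact Nat.mul_le_mul_right _ (Finset.card_erase_le)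
  have hc1 : 1 ≤ c := le_trans Nat.card_pos hc
  have hT2 : 2 * c < T.card := by
    by_contra h
    push Not at h
    nlinarith
  have h6 : T.card * T.card ≤ 2 * S.card := by
    rw [hS]
    have : 2 * T.card ≤ T.card * T.card := Nat.mul_le_mul_right _ (by omega)
    omega
  have h7 : Nat.card N * Nat.card N ≤ c ^ 2 * (2 * S.card) := by
    calc _ ≤ (c * T.card) * (c * T.card) := Nat.mul_le_mul hNT hNT
      _ = c ^ 2 * (T.card * T.card) := by ring
      _ ≤ _ := Nat.mul_le_mul_left _ h6
  nlinarith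

end CfsgLib.InvBound

namespace CfsgLib.InvBound

open scoped Nat

universe v

variable {G : Type v} [Group G] [Finite G]

/-- A minimal normal subgroup of even order is bounded. -/
theorem card_minNormal_le (N : Subgroup G) [hN : N.Normal]
    (hmin : ∀ K : Subgroup G, K.Normal → K ≤ N → K = ⊥ ∨ K = N) (heven : 2 ∣ Nat.card N) {a c : ℕ}
    (ha : (Nat.card G).factorization 2 ≤ a) {x : G} (hx : x * x = 1)
    (hc : Nat.card (Subgroup.centralizer ({x} : Set G)) ≤ c) :
    Nat.card N ≤ max (max (2 ^ a) (2 * c ^ 2)) (((2 * c ^ 2)!) ^ a) := by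
  classical
  haveI := Fact.mk Nat.prime_two
  have h2 : ∀ e : ℕ, 2 ^ e ∣ Nat.card N → e ≤ a := fun e he => le_trans
    ((Nat.prime_two.pow_dvd_iff_le_factorization Nat.card_pos.ne').1 (he.trans (Subgroup.card_subgroup_dvd_card N))) ha
  by_cases hab : ∀ u ∈ N, ∀ v ∈ N, u * v = v * u
  · refine le_max_of_le_left (le_max_of_le_left ?_)
    let K : Subgroup G :=
      { carrier := {g | g ∈ N ∧ g * g = 1}
        one_mem' := ⟨N.one_mem, one_mul 1⟩
        mul_mem' := by
          rintro u v ⟨hu, hu'⟩ ⟨hv, hv'⟩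
          refine ⟨N.mul_mem hu hv, ?_⟩
          rw [mul_assoc, ← mul_assoc v, hab v hv u hu, mul_assoc u v v, ← mul_assoc, hu', one_mul, hv']
        inv_mem' := by
          rintro u ⟨hu, hu'⟩
          exact ⟨N.inv_mem hu, by rw [← mul_inv_rev, hu', inv_one]⟩ }
    have hKN : K ≤ N := fun g hg => hg.1
    have hKn : K.Normal := ⟨fun g hg h => ⟨hN.conj_mem g hg.1 h, by
      rw [show h * g * h⁻¹ * (h * g * h⁻¹) = h * (g * g) * h⁻¹ by group, hg.2, mul_one, mul_inv_cancel]⟩⟩
    have hK : K = N := by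
      refine (hmin K hKn hKN).resolve_left fun h => ?_
      obtain ⟨w, hw⟩ := exists_prime_orderOf_dvd_card' 2 heven
      have hwK : (w : G) ∈ K := ⟨w.2, by
        rw [← pow_two, ← hw, ← Subgroup.orderOf_coe, pow_orderOf_eq_one]⟩
      rw [h, Subgroup.mem_bot] at hwK
      rw [← Subgroup.orderOf_coe, hwK, orderOf_one] at hw
      omega
    have hp : IsPGroup 2 N := fun g => ⟨1, Subtype.ext (by
      have := (hK.ge g.2).2
      simpa [pow_two] using this)⟩
    obtain ⟨e, he⟩ := IsPGroup.iff_card.1 hp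
    rw [he]
    exact Nat.pow_le_pow_right (by norm_num) (h2 e (he ▸ dvd_rfl))
  rcases exists_small_index N hx hc with h | ⟨z, hzN, hz1, hz⟩
  · exact le_max_of_le_left (le_max_of_le_right h)
  refine le_max_of_le_right ?_
  set C := (Subgroup.centralizer ({z} : Set G)).subgroupOf N with hC
  have hCtop : C.normalCore ≠ ⊤ := by
    intro h
    have hCt : C = ⊤ := top_le_iff.1 (h ▸ Subgroup.normalCore_le C)
    let Z : Subgroup G := N ⊓ Subgroup.centralizer (N : Set G)
    have hZn : Z.Normal := inferInstance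
    have hZ : Z = N := (hmin Z hZn inf_le_left).resolve_left fun hb => hz1 (by
      refine Subgroup.mem_bot.1 (hb ▸ ⟨hzN, Subgroup.mem_centralizer_iff.2 fun g hg => ?_⟩)
      exact Subgroup.mem_centralizer_singleton_iff.1 (show (⟨g, hg⟩ : N) ∈ C from hCt ▸ Subgroup.mem_top _))
    exact hab fun u hu v hv => (Subgroup.mem_centralizer_iff.1 (hZ.ge hv).2 u hu)
  obtain ⟨K, hK, hKmax⟩ := Set.Finite.exists_maximalFor id
    {K : Subgroup N | K.Normal ∧ C.normalCore ≤ K ∧ K ≠ ⊤} (Set.toFinite _)
    ⟨C.normalCore, inferInstance, le_rfl, hCtop⟩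
  haveI := hK.1
  have hm : K.index ≤ (2 * c ^ 2)! := by
    refine (Nat.le_of_dvd (Nat.pos_of_ne_zero Subgroup.index_ne_zero_of_finite)
      (Subgroup.index_dvd_of_le hK.2.1)).trans ?_
    refine le_trans ?_ (Nat.factorial_le hz)
    rw [Subgroup.normalCore_eq_ker, Subgroup.index_ker, Subgroup.relIndex, ← hC, Subgroup.index_eq_card,
      ← Nat.card_perm]
    exact Nat.le_of_dvd Nat.card_pos (Subgroup.card_subgroup_dvd_card _)
  have hcoatom : ∀ L : Subgroup N, L.Normal → K ≤ L → L = K ∨ L = ⊤ := fun L hL hKL => by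
    by_contra hne
    push Not at hne
    exact hne.1 (le_antisymm (hKmax ⟨hL, hK.2.1.trans hKL, hne.2⟩ hKL) hKL)
  let img : G → Subgroup N := fun g => K.comap (MulAut.conjNormal g : MulAut N).toMonoidHom
  have himg : ∀ g, (img g).index = K.index := fun g =>
    Subgroup.index_comap_of_surjective _ (MulAut.conjNormal g : MulAut N).surjective
  have himgmax : ∀ g, ∀ L : Subgroup N, L.Normal → img g ≤ L → L = img g ∨ L = ⊤ := by
    intro g L hL hle
    set ψ := (MulAut.conjNormal g : MulAut N) with hψ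
    have hK' : K = (img g).map ψ.toMonoidHom := (Subgroup.map_comap_eq_self_of_surjective ψ.surjective K).symm
    rcases hcoatom (L.map ψ.toMonoidHom) (hL.map _ ψ.surjective)
        (hK' ▸ Subgroup.map_mono hle) with h | h
    · left
      show L = K.comap ψ.toMonoidHom
      rw [← h]
      exact (Subgroup.comap_map_eq_self_of_injective (f := ψ.toMonoidHom) ψ.injective L).symm
    · right
      rw [← Subgroup.comap_map_eq_self_of_injective (f := ψ.toMonoidHom) ψ.injective L, h, Subgroup.comap_top]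
  haveI := Fintype.ofFinite G
  have hind : ∀ s : Finset G, ∃ j, (s.inf img).index = K.index ^ j := by
    intro s
    induction s using Finset.induction_on with
    | empty => exact ⟨0, by simp⟩
    | insert g s hgs ih =>
      obtain ⟨j, hj⟩ := ih
      have hsn : (s.inf img).Normal := by
        refine Finset.inf_induction (p := fun L : Subgroup N => L.Normal) inferInstance
          (fun A hA B hB => Subgroup.normal_inf_normal A B) (fun g' _ => hK.1.comap _)
      haveI : (img g).Normal := hK.1.comap _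
      rw [Finset.inf_insert]
      rcases himgmax g _ (Subgroup.sup_normal (s.inf img) (img g)) le_sup_right with h | h
      · refine ⟨j, ?_⟩
        rw [inf_eq_right.2 (h ▸ le_sup_left), hj]
      · refine ⟨j + 1, ?_⟩
        rw [← Subgroup.relIndex_mul_index (inf_le_right : img g ⊓ s.inf img ≤ s.inf img),
          Subgroup.inf_relIndex_right, ← Subgroup.relIndex_sup_right, h, Subgroup.relIndex_top_right, himg, hj,
          pow_succ']
  obtain ⟨j, hj⟩ := hind Finset.univ
  let J : Subgroup G := (Finset.univ.inf img).map N.subtype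
  have hJn : J.Normal := ⟨fun n hn g => by
    obtain ⟨m, hm', rfl⟩ := Subgroup.mem_map.1 hn
    refine Subgroup.mem_map.2 ⟨MulAut.conjNormal g m, ?_, MulAut.conjNormal_apply g m⟩
    refine Subgroup.zpowers_le.1 (Finset.le_inf fun h _ => Subgroup.zpowers_le.2 ?_)
    have h2 := Finset.inf_le (f := img) (Finset.mem_univ (h * g)) hm'
    show MulAut.conjNormal h (MulAut.conjNormal g m) ∈ K
    rw [← MulAut.mul_apply, ← map_mul]
    exact h2⟩
  have hJ : J = ⊥ := by
    refine (hmin J hJn (Subgroup.map_subtype_le _)).resolve_right fun h => hK.2.2 (top_le_iff.1 fun n _ => ?_)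
    obtain ⟨m, hm', hmn⟩ := Subgroup.mem_map.1 (show (n : G) ∈ J from h.ge n.2)
    have h2 := Finset.inf_le (f := img) (Finset.mem_univ (1 : G)) hm'
    rw [← Subtype.ext hmn]
    simpa [img] using h2
  have hcardN : Nat.card N = K.index ^ j := by
    rw [← hj, (Subgroup.map_eq_bot_iff_of_injective _ N.subtype_injective).1 hJ, Subgroup.index_bot]
  have hKe : 2 ∣ K.index := Nat.prime_two.dvd_of_dvd_pow (hcardN ▸ heven)
  have hja : j ≤ a := h2 j (hcardN ▸ pow_dvd_pow_of_dvd hKe j)
  rw [hcardN]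
  exact (Nat.pow_le_pow_left hm j).trans (Nat.pow_le_pow_right (Nat.factorial_pos _) hja)

/-- The image of a normal subgroup of index bounded through the automorphisms. -/
theorem card_le_of_centralizing_mem (N : Subgroup G) [N.Normal] {w : G} (hw : w ∈ N) :
    Nat.card G ≤ (Nat.card N)! * Nat.card (Subgroup.centralizer ({w} : Set G)) := by
  let f : G →* Equiv.Perm N :=
    { toFun := fun g => (MulAut.conjNormal g : MulAut N).toEquiv
      map_one' := by rw [map_one]; rfl
      map_mul' := fun a b => by rw [map_mul]; rfl }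
  have hker : f.ker ≤ Subgroup.centralizer ({w} : Set G) := fun g hg => by
    rw [Subgroup.mem_centralizer_singleton_iff]
    have h := congrArg (fun e : Equiv.Perm N => (e ⟨w, hw⟩ : G)) (MonoidHom.mem_ker.1 hg)
    change ((MulAut.conjNormal g ⟨w, hw⟩ : N) : G) = w at h
    rw [MulAut.conjNormal_apply, mul_inv_eq_iff_eq_mul] at h
    exact h
  rw [← f.ker.index_mul_card]
  refine Nat.mul_le_mul ?_ (Subgroup.card_le_of_le hker)
  rw [Subgroup.index_ker, ← Nat.card_perm]
  exact Nat.card_le_card_of_injective _ Subtype.val_injective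

/-- Centralisers in a quotient. -/
theorem card_centralizer_quotient_le (R : Subgroup G) [R.Normal] (x : G) :
    Nat.card (Subgroup.centralizer ({(x : G ⧸ R)} : Set (G ⧸ R))) ≤
      Nat.card R * Nat.card (Subgroup.centralizer ({x} : Set G)) := by
  classical
  haveI := Fintype.ofFinite G
  set π := QuotientGroup.mk' R with hπ
  set H := (Subgroup.centralizer ({(x : G ⧸ R)} : Set (G ⧸ R))).comap π with hH
  have h1 : Nat.card (Subgroup.centralizer ({(x : G ⧸ R)} : Set (G ⧸ R))) ≤ Nat.card H :=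
    Nat.card_le_card_of_surjective (π.subgroupComap _) (by
      rintro ⟨q, hq⟩
      obtain ⟨g, rfl⟩ := QuotientGroup.mk'_surjective R q
      exact ⟨⟨g, hq⟩, rfl⟩)
  refine h1.trans ?_
  rw [Nat.card_eq_fintype_card, Fintype.card_subtype, mul_comm]
  have hRc : (Finset.univ.filter fun g => g ∈ R).card = Nat.card R := by
    rw [Nat.card_eq_fintype_card, Fintype.card_subtype]
  rw [← hRc]
  refine (Finset.card_le_mul_card_image_of_maps_to (f := fun g => x⁻¹ * (g * x * g⁻¹)) (fun g hg => ?_) _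
    fun t _ => ?_)
  · simp only [Finset.mem_coe, Finset.mem_filter, Finset.mem_univ, true_and] at hg ⊢
    rw [← QuotientGroup.eq_one_iff]
    have h2 : (g : G ⧸ R) * x = x * g := Subgroup.mem_centralizer_singleton_iff.1 hg
    simp only [QuotientGroup.mk_mul, QuotientGroup.mk_inv, h2]
    group
  · rw [Nat.card_eq_fintype_card, Fintype.card_subtype]
    rcases ((Finset.univ.filter fun g => g ∈ H).filter fun g => x⁻¹ * (g * x * g⁻¹) = t).eq_empty_or_nonempty with
      h | ⟨a, ha⟩
    · rw [h]; simp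
    refine Finset.card_le_card_of_injOn (fun g => a⁻¹ * g) (fun g hg => ?_) (fun g _ g' _ h => mul_left_cancel h)
    have h3 : x⁻¹ * (g * x * g⁻¹) = x⁻¹ * (a * x * a⁻¹) :=
      (Finset.mem_filter.1 hg).2.trans (Finset.mem_filter.1 ha).2.symm
    have h4 := mul_left_cancel h3
    simp only [Finset.mem_coe, Finset.mem_filter, Finset.mem_univ, true_and,
      Subgroup.mem_centralizer_singleton_iff]
    calc a⁻¹ * g * x = a⁻¹ * (g * x * g⁻¹) * g := by group
      _ = _ := by rw [h4]; group

/-- A four group with bounded centralisers and a bounded Sylow 2-subgroup bound the group. -/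
theorem exists_card_bound : ∀ a c : ℕ, ∃ B : ℕ, ∀ (G : Type v) [Group G] [Finite G],
    (Nat.card G).factorization 2 ≤ a → ∀ x y : G, x * x = 1 → y * y = 1 → x * y = y * x → x ≠ 1 → y ≠ 1 →
      x ≠ y → Nat.card (Subgroup.centralizer ({x} : Set G)) ≤ c →
      Nat.card (Subgroup.centralizer ({y} : Set G)) ≤ c →
      Nat.card (Subgroup.centralizer ({x * y} : Set G)) ≤ c → Nat.card G ≤ B := by
  intro a
  induction a with
  | zero =>
    intro c
    refine ⟨0, fun G _ _ ha x y hx _ _ hx1 _ _ _ _ _ => absurd ha ?_⟩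
    have h2 : 2 ∣ Nat.card G := (orderOf_eq_prime (hp := Fact.mk Nat.prime_two) (by rw [pow_two]; exact hx) hx1) ▸
      orderOf_dvd_natCard x
    have := Nat.prime_two.factorization_pos_of_dvd Nat.card_pos.ne' h2
    omega
  | succ a ih =>
    intro c
    set c₁ := c ^ 3 * c with hc₁
    set g := max (max (2 ^ (a + 1)) (2 * c₁ ^ 2)) (((2 * c₁ ^ 2)!) ^ (a + 1)) with hg
    obtain ⟨B', hB'⟩ := ih (g * c₁)
    refine ⟨c ^ 3 * max (max 1 (g ! * c₁)) (g * B'), fun G _ _ ha x y hx hy hxy hx1 hy1 hne hcx hcy hcz => ?_⟩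
    classical
    obtain ⟨R, hR, hRmax⟩ := Set.Finite.exists_maximalFor id
      {R : Subgroup G | R.Normal ∧ Odd (Nat.card R)} (Set.toFinite _)
      ⟨⊥, inferInstance, by rw [Subgroup.card_bot]; exact odd_one⟩
    haveI := hR.1
    have hRc : Nat.card R ≤ c ^ 3 := by
      have hconj : ∀ {u : G}, u * u = 1 → ∀ h : G, MulAut.conj u (MulAut.conj u h) = h := fun {u} hu h => by
        rw [← MulAut.mul_apply, ← map_mul, hu, map_one]; rfl
      have h := card_odd_le hR.2 (MulAut.conj x) (MulAut.conj y) (hconj hx) (hconj hy)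
        (fun h => by rw [← MulAut.mul_apply, ← map_mul, hxy, map_mul]; rfl)
        (fun g hg => hR.1.conj_mem g hg x) (fun g hg => hR.1.conj_mem g hg y)
      have hle : ∀ (u : G) (p : G → Prop), (∀ g, p g → u * g * u⁻¹ = g) →
          Nat.card (Subgroup.centralizer ({u} : Set G)) ≤ c → Nat.card {g : G // g ∈ R ∧ p g} ≤ c := by
        intro u p hp hu
        refine le_trans (Nat.card_le_card_of_injective (fun g : {g : G // g ∈ R ∧ p g} =>
          (⟨g.1, Subgroup.mem_centralizer_singleton_iff.2 (mul_inv_eq_iff_eq_mul.1 (hp _ g.2.2)).symm⟩ :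
            Subgroup.centralizer ({u} : Set G))) fun a b e => Subtype.ext (by simpa using e)) hu
      refine h.trans ?_
      have h1 := hle x (fun g => MulAut.conj x g = g) (fun g hg => hg) hcx
      have h2 := hle y (fun g => MulAut.conj y g = g) (fun g hg => hg) hcy
      have h3 := hle (x * y) (fun g => MulAut.conj x (MulAut.conj y g) = g) (fun g hg => by
        rwa [← MulAut.mul_apply, ← map_mul] at hg) hcz
      calc _ ≤ c * (c * c) := Nat.mul_le_mul h1 (Nat.mul_le_mul h2 h3)
        _ = _ := by ring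
    rw [← R.index_mul_card, mul_comm, Subgroup.index_eq_card]
    refine Nat.mul_le_mul hRc ?_
    set π := QuotientGroup.mk' R with hπ
    have hQa : (Nat.card (G ⧸ R)).factorization 2 ≤ a + 1 := le_trans
      ((Nat.factorization_le_iff_dvd Nat.card_pos.ne' Nat.card_pos.ne').2 (Subgroup.card_quotient_dvd_card R) 2) ha
    have hne1 : ∀ u : G, u * u = 1 → u ≠ 1 → π u ≠ 1 := fun u hu hu1 h => by
      have hmem : u ∈ R := (QuotientGroup.eq_one_iff u).1 h
      obtain ⟨k, hk⟩ := hR.2
      have := pow_half (R := R) (e := k + 1) (by omega) hmem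
      rw [hu, one_pow] at this
      exact hu1 this.symm
    have hxy1 : x * y ≠ 1 := fun h => hne (mul_left_cancel (hx.trans h.symm))
    have hxy2 : x * y * (x * y) = 1 := by
      rw [mul_assoc, ← mul_assoc y, ← hxy, mul_assoc x y y, hy, mul_one, hx]
    have hcq : ∀ u : G, Nat.card (Subgroup.centralizer ({u} : Set G)) ≤ c →
        Nat.card (Subgroup.centralizer ({π u} : Set (G ⧸ R))) ≤ c₁ := fun u hu =>
      (card_centralizer_quotient_le R u).trans (Nat.mul_le_mul hRc hu)
    haveI : Nontrivial (G ⧸ R) := nontrivial_of_ne _ _ (hne1 x hx hx1)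
    obtain ⟨N, hN, hNmin⟩ := Set.Finite.exists_minimalFor id
      {N : Subgroup (G ⧸ R) | N.Normal ∧ N ≠ ⊥} (Set.toFinite _) ⟨⊤, inferInstance, top_ne_bot⟩
    haveI := hN.1
    have hNeven : 2 ∣ Nat.card N := by
      by_contra hodd
      rw [← even_iff_two_dvd, Nat.not_even_iff_odd] at hodd
      have hcomap : R = N.comap π := le_antisymm (by
          intro r hr
          rw [Subgroup.mem_comap, hπ, QuotientGroup.mk'_apply, (QuotientGroup.eq_one_iff r).2 hr]
          exact N.one_mem) (hRmax ⟨hN.1.comap π, ?_⟩ (by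
          intro r (hr : r ∈ R)
          show π r ∈ N
          rw [hπ, QuotientGroup.mk'_apply, (QuotientGroup.eq_one_iff r).2 hr]
          exact N.one_mem))
      · refine hN.2 (eq_bot_iff.2 fun q hq => ?_)
        obtain ⟨u, rfl⟩ := QuotientGroup.mk'_surjective R q
        rw [Subgroup.mem_bot]
        exact (QuotientGroup.eq_one_iff u).2 (hcomap ▸ hq)
      · show Odd (Nat.card (N.comap π))
        have h1 := (N.comap π).card_mul_index
        rw [Subgroup.index_comap_of_surjective _ (QuotientGroup.mk'_surjective R), ← R.card_mul_index,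
          Subgroup.index_eq_card R, ← N.card_mul_index, ← mul_assoc] at h1
        rw [Nat.eq_of_mul_eq_mul_right (Nat.pos_of_ne_zero Subgroup.index_ne_zero_of_finite) h1]
        exact hR.2.mul hodd
    have hNc : Nat.card N ≤ g := card_minNormal_le N
      (fun K hK hKN => (em (K = ⊥)).imp_right fun h => le_antisymm hKN (hNmin ⟨hK, h⟩ hKN)) hNeven hQa
      (by rw [← map_mul, hx, map_one]) (hcq x hcx)
    have hin : ∀ u : G, Nat.card (Subgroup.centralizer ({u} : Set G)) ≤ c → π u ∈ N →
        Nat.card (G ⧸ R) ≤ max (max 1 (g ! * c₁)) (g * B') := fun u hu hm =>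
      le_max_of_le_left (le_max_of_le_right ((card_le_of_centralizing_mem N hm).trans
        (Nat.mul_le_mul (Nat.factorial_le hNc) (hcq u hu))))
    by_cases hxN : π x ∈ N
    · exact hin x hcx hxN
    by_cases hyN : π y ∈ N
    · exact hin y hcy hyN
    by_cases hzN : π (x * y) ∈ N
    · exact hin _ hcz hzN
    refine le_max_of_le_right ?_
    rw [← N.index_mul_card, mul_comm, Subgroup.index_eq_card]
    refine Nat.mul_le_mul hNc (hB' ((G ⧸ R) ⧸ N) ?_ (π x : (G ⧸ R) ⧸ N) (π y : (G ⧸ R) ⧸ N) ?_ ?_ ?_ ?_ ?_ ?_ ?_ ?_ ?_)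
    · have h1 : Nat.card (G ⧸ R) = Nat.card ((G ⧸ R) ⧸ N) * Nat.card N :=
        Subgroup.card_eq_card_quotient_mul_card_subgroup N
      rw [h1, Nat.factorization_mul Nat.card_pos.ne' Nat.card_pos.ne', Finsupp.add_apply] at hQa
      have := Nat.prime_two.factorization_pos_of_dvd Nat.card_pos.ne' hNeven
      omega
    · rw [← QuotientGroup.mk_mul, ← map_mul, hx, map_one, QuotientGroup.mk_one]
    · rw [← QuotientGroup.mk_mul, ← map_mul, hy, map_one, QuotientGroup.mk_one]
    · rw [← QuotientGroup.mk_mul, ← map_mul, hxy, map_mul, QuotientGroup.mk_mul]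
    · exact fun h => hxN ((QuotientGroup.eq_one_iff _).1 h)
    · exact fun h => hyN ((QuotientGroup.eq_one_iff _).1 h)
    · intro h
      have h' := QuotientGroup.eq.1 h
      rw [← map_inv, ← map_mul, inv_eq_self_of_involution hx] at h'
      exact hzN h'
    · exact (card_centralizer_quotient_le N _).trans (Nat.mul_le_mul hNc (hcq x hcx))
    · exact (card_centralizer_quotient_le N _).trans (Nat.mul_le_mul hNc (hcq y hcy))
    · rw [← QuotientGroup.mk_mul, ← map_mul]
      exact (card_centralizer_quotient_le N _).trans (Nat.mul_le_mul hNc (hcq _ hcz))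

end CfsgLib.InvBound
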